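import Cfsg.Agent.H369.CV.D4Cross
import Cfsg.Agent.H92.E8Row
import Cfsg.Agent.H135.TD.OwnTwo
import Cfsg.Agent.H135.TD.OwnThree
import Cfsg.Agent.H564.TD.Own
import Cfsg.Agent.H373.CV.Glue


/-!
# S3442: the triality groups `³D₄(q)`, `q > 2` (helper369)
-/

set_option autoImplicit false

namespace Cfsg.Agent.H369.CV.D4

open Cfsg Cfsg.Lie Cfsg.Agent.H373.CV

universe u v

/-- own characteristic, from an element with a fixed vector in every module -/
theorem hit_own {K : Type v} [Field K] [Fintype K] {p q : ℕ} [CharP K p] (hp : p.Prime) (hq : IsPrimePow q)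
    (hq2 : q ≠ 2) (hK : Fintype.card K = q ^ 3) {x : ↥(twistedD4 K q)} (hx : (orderOf x).Coprime p)
    (h1 : ¬ orderOf x ∣ q ^ 3 - 1) (h2 : ¬ orderOf x ∣ q ^ 3 + 1) (hf : H425.KFix.FixAll.{u} p x) :
    Hit.{u, v} p ↥(twistedD4 K q) := by
  obtain ⟨e, he, hqe⟩ := exists_e (K := K) hp hq hK
  have hq3 : 2 < q := by
    have := hq.one_lt
    omega
  have hpq : p ∣ q := by
    rw [hqe]
    exact dvd_pow_self p (by omega)
  have key : H366.X.CovP.{v, u} p ↥(twistedD4 K q) := by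
    refine Cfsg.Agent.H92.E8Row.covP_of_fixAll hp (x := x) (fun h => hp.one_lt.ne' (Nat.dvd_one.1 ?_)) ?_ hf
    · rw [← hx]
      exact Nat.dvd_gcd h dvd_rfl
    rintro ⟨y, hy⟩
    have h3 := (om_gen hp he hqe hq3 hK y)
    rw [hy] at h3
    rcases h3.of_dvd (by omega) hp hpq hx with h | h
    · exact h1 h
    · exact h2 h
  intro W _ _ _ hW φ
  obtain ⟨x, w, h4, h5⟩ := key W hW φ
  exact ⟨x, w, h4, fun y hy => h5 ⟨y, hy⟩⟩

theorem hit_of_own {L : Type v} [Group L] {p : ℕ} {P : ℕ → Prop} (hom : ∀ l : L, P (orderOf l))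
    (own : ∀ (V : Type u) [AddCommGroup V] [Module (ZMod p) V] (ρ : L →* (V →ₗ[ZMod p] V)),
      (∀ l : L, ¬ P (p * orderOf l) → ∀ v : V, ∑ i ∈ Finset.range (orderOf l), ρ (l ^ i) v = 0) → ∀ v : V, v = 0) :
    Hit.{u, v} p L := by
  intro W _ _ _ hW ψ
  by_contra hcon
  push Not at hcon
  let _ : Module (ZMod p) W := AddCommGroup.zmodModule hW
  obtain ⟨ρ, hρ⟩ := exists_lin p ψ
  obtain ⟨w, hw⟩ := exists_ne (0 : W)
  refine hw (own W ρ (fun l hl v => ?_) w)
  by_contra hne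
  obtain ⟨y, hy⟩ := hcon l v (by
    simp only [hρ] at hne
    exact hne)
  apply hl
  rw [← hy]
  exact hom y

/-- own characteristic `2`, `3` (helper135) -/
theorem hit_own_23 {K : Type v} [Field K] [Fintype K] {p q : ℕ} [CharP K p] (h23 : p = 2 ∨ p = 3) (hq : IsPrimePow q)
    (hq2 : q ≠ 2) (hK : Fintype.card K = q ^ 3) : Hit.{u, v} p ↥(twistedD4 K q) := by
  have hp : p.Prime := by
    rcases h23 with rfl | rfl
    · exact Nat.prime_two
    · exact Nat.prime_three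
  obtain ⟨e, he, hqe⟩ := exists_e (K := K) hp hq hK
  have hP : H135.TD.Par p q := ⟨h23, ⟨e, he, hqe⟩, by
    have := hq.one_lt
    omega⟩
  obtain ⟨φ, hφ⟩ := Cfsg.Agent.ChevalleyStructure.D4Fixed.exists_frob hq hK
  have hb : Function.Bijective φ := by
    rw [Fintype.bijective_iff_injective_and_card]
    exact ⟨RingHom.injective (φ : K →+* K), rfl⟩
  obtain ⟨σ, hσ⟩ : ∃ σ : K ≃+* K, ∀ x, σ x = x ^ q := ⟨RingEquiv.ofBijective φ hb, hφ⟩
  have hd : H135.TD.Fd p q σ := ⟨hP, inferInstance, by rw [Nat.card_eq_fintype_card, hK], hσ, inferInstance⟩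
  have c : Cit.HexBase.HexGrp σ ↥(twistedD4 K q) := Cfsg.Agent.Cit.HexD4.d4 hq hK hσ
  have hfr : Fact p.Prime := ⟨hp⟩
  refine hit_of_own (P := H135.TD.Om p q) (Cfsg.Agent.H378.OmD4.om_3D4 hP hK) fun V _ _ ρ hN v => ?_
  rcases h23 with rfl | rfl
  · exact H135.TD.own_two c ρ hd hN v
  · exact H135.TD.own_three c ρ hd hN v

/-- **`³D₄(q)`, `q > 2`**: every prime is hit, given the own characteristic `p ≥ 5` -/
theorem hit_D4_of {K : Type v} [Field K] [Fintype K] {q : ℕ} (hq : IsPrimePow q) (hq2 : q ≠ 2)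
    (hK : Fintype.card K = q ^ 3)
    (hown : ∀ p : ℕ, p.Prime → 5 ≤ p → CharP K p → Hit.{u, v} p ↥(twistedD4 K q)) {r : ℕ} (hr : r.Prime) :
    Hit.{u, v} r ↥(twistedD4 K q) := by
  obtain ⟨p, hchar⟩ := CharP.exists K
  have hp : p.Prime := CharP.char_is_prime K p
  by_cases hrp : r = p
  · subst hrp
    by_cases h23 : r = 2 ∨ r = 3
    · exact hit_own_23 h23 hq hq2 hK
    · refine hown r hr ?_ hchar
      have h2 := hp.two_le
      have h4 : r ≠ 4 := by
        rintro rfl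
        exact absurd hp (by norm_num)
      omega
  · exact hit_cross hp hq hq2 hK hr hrp

/-- **`³D₄(q)`, `q > 2`**: every prime is hit (own characteristic `p ≥ 5`: helper564) -/
theorem hit_D4 {K : Type v} [Field K] [Fintype K] {q : ℕ} (hq : IsPrimePow q) (hq2 : q ≠ 2)
    (hK : Fintype.card K = q ^ 3) {r : ℕ} (hr : r.Prime) : Hit.{u, v} r ↥(twistedD4 K q) :=
  hit_D4_of hq hq2 hK (fun _ hp h5 hc => by
    have := Fact.mk hp
    exact H564.TD.hit_own (by omega) hq hK) hr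

/-- the row of S3442 -/
theorem ncs_D4 (hf : Frame.{u, 0}) (K : Type) [Field K] [Fintype K] (q : ℕ) (hq : IsPrimePow q)
    (hK : Fintype.card K = q ^ 3) (hq2 : q ≠ 2) : NCS.{u, 0} ↥(twistedD4 K q) :=
  hf.ncs' fun _ hr => hit_D4 hq hq2 hK hr

end Cfsg.Agent.H369.CV.D4
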